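-- helper5: SU_4(2) (over a field with 4 elements) is generated by two elements
-- (block [III] of S2412 = PSU_n(q) two-generated).  Method: a = T_{v0}, b = P * T_u; the set of
-- isotropic v with T_v in <a, b> is stable under a and b; a 4-element model of the field and a
-- machine-found orbit tree show that it contains every nonzero isotropic vector; then S0780.
import Mathlib
import Cfsg.Agent.S0780

set_option autoImplicit false

namespace Cfsg.Agent.Lib.Helper5.SUG

open Matrix Cfsg.Agent.Lib.Helper45 Cfsg.Agent.Lib.Helper44 Cfsg.Agent.Lib.Helper13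

/-- A 4-element model of the field with four elements: `0, 1, ω, ω + 1`. -/
inductive K4 : Type
  | z | o | w | t
  deriving DecidableEq

instance : Fintype K4 :=
  ⟨{K4.z, K4.o, K4.w, K4.t}, by intro x; cases x <;> decide⟩

namespace K4

/-- addition in the model. -/
def add : K4 → K4 → K4
  | z, z => z | z, o => o | z, w => w | z, t => t
  | o, z => o | o, o => z | o, w => t | o, t => w
  | w, z => w | w, o => t | w, w => z | w, t => o
  | t, z => t | t, o => w | t, w => o | t, t => z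

/-- multiplication in the model. -/
def mul : K4 → K4 → K4
  | z, z => z | z, o => z | z, w => z | z, t => z
  | o, z => z | o, o => o | o, w => w | o, t => t
  | w, z => z | w, o => w | w, w => t | w, t => o
  | t, z => z | t, o => t | t, w => o | t, t => w

/-- squaring (the Frobenius) in the model. -/
def sq : K4 → K4
  | z => z | o => o | w => t | t => w

end K4

/-- vectors of length 4 over the model. -/
abbrev V4 : Type := K4 × K4 × K4 × K4

/-- the Hermitian form in the model. -/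
def hK : V4 → V4 → K4
  | (x0, x1, x2, x3), (y0, y1, y2, y3) =>
    K4.add (K4.add (K4.add (K4.mul x0 (K4.sq y0)) (K4.mul x1 (K4.sq y1)))
      (K4.mul x2 (K4.sq y2))) (K4.mul x3 (K4.sq y3))

/-- the transvection `x ↦ x + h(x, u) u` in the model. -/
def tK : V4 → V4 → V4
  | (u0, u1, u2, u3), (x0, x1, x2, x3) =>
    (K4.add x0 (K4.mul (hK (x0, x1, x2, x3) (u0, u1, u2, u3)) u0),
     K4.add x1 (K4.mul (hK (x0, x1, x2, x3) (u0, u1, u2, u3)) u1),
     K4.add x2 (K4.mul (hK (x0, x1, x2, x3) (u0, u1, u2, u3)) u2),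
     K4.add x3 (K4.mul (hK (x0, x1, x2, x3) (u0, u1, u2, u3)) u3))

/-- the coordinate rotation in the model. -/
def permK : V4 → V4
  | (x0, x1, x2, x3) => (x1, x2, x3, x0)

/-- the first base vector. -/
def v0K : V4 := (K4.z, K4.z, K4.o, K4.w)

/-- the second base vector. -/
def uK : V4 := (K4.o, K4.o, K4.o, K4.w)

/-- action of the first generator. -/
def actA (x : V4) : V4 := tK v0K x

/-- action of the second generator. -/
def actB (x : V4) : V4 := permK (tK uK x)

/-- the orbit of the first base vector. -/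
inductive Orb : V4 → Prop
  | base : Orb (K4.z, K4.z, K4.o, K4.w)
  | stepA (x : V4) : Orb x → Orb (actA x)
  | stepB (x : V4) : Orb x → Orb (actB x)

theorem orb_0 : Orb (K4.z, K4.z, K4.o, K4.w) := Orb.base
theorem orb_1 : Orb (K4.z, K4.o, K4.w, K4.z) := Orb.stepB _ orb_0
theorem orb_2 : Orb (K4.z, K4.o, K4.z, K4.t) := Orb.stepA _ orb_1
theorem orb_3 : Orb (K4.w, K4.o, K4.o, K4.t) := Orb.stepB _ orb_1
theorem orb_4 : Orb (K4.w, K4.t, K4.w, K4.t) := Orb.stepB _ orb_2
theorem orb_5 : Orb (K4.w, K4.o, K4.w, K4.w) := Orb.stepA _ orb_3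
theorem orb_6 : Orb (K4.o, K4.o, K4.t, K4.w) := Orb.stepB _ orb_3
theorem orb_7 : Orb (K4.w, K4.t, K4.o, K4.t) := Orb.stepB _ orb_4
theorem orb_8 : Orb (K4.o, K4.w, K4.w, K4.w) := Orb.stepB _ orb_5
theorem orb_9 : Orb (K4.o, K4.o, K4.o, K4.o) := Orb.stepA _ orb_6
theorem orb_10 : Orb (K4.t, K4.o, K4.o, K4.t) := Orb.stepB _ orb_6
theorem orb_11 : Orb (K4.w, K4.t, K4.w, K4.w) := Orb.stepA _ orb_7
theorem orb_12 : Orb (K4.o, K4.t, K4.z, K4.z) := Orb.stepB _ orb_7
theorem orb_13 : Orb (K4.o, K4.w, K4.o, K4.t) := Orb.stepA _ orb_8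
theorem orb_14 : Orb (K4.w, K4.w, K4.w, K4.o) := Orb.stepB _ orb_8
theorem orb_15 : Orb (K4.t, K4.t, K4.w, K4.t) := Orb.stepB _ orb_9
theorem orb_16 : Orb (K4.t, K4.o, K4.w, K4.w) := Orb.stepA _ orb_10
theorem orb_17 : Orb (K4.o, K4.z, K4.o, K4.z) := Orb.stepB _ orb_11
theorem orb_18 : Orb (K4.o, K4.w, K4.t, K4.t) := Orb.stepB _ orb_12
theorem orb_19 : Orb (K4.w, K4.o, K4.t, K4.o) := Orb.stepB _ orb_13
theorem orb_20 : Orb (K4.w, K4.w, K4.t, K4.t) := Orb.stepA _ orb_14
theorem orb_21 : Orb (K4.t, K4.t, K4.t, K4.t) := Orb.stepB _ orb_14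
theorem orb_22 : Orb (K4.t, K4.w, K4.t, K4.t) := Orb.stepB _ orb_15
theorem orb_23 : Orb (K4.z, K4.t, K4.z, K4.w) := Orb.stepB _ orb_16
theorem orb_24 : Orb (K4.o, K4.z, K4.z, K4.w) := Orb.stepA _ orb_17
theorem orb_25 : Orb (K4.z, K4.o, K4.z, K4.o) := Orb.stepB _ orb_17
theorem orb_26 : Orb (K4.o, K4.w, K4.w, K4.o) := Orb.stepA _ orb_18
theorem orb_27 : Orb (K4.w, K4.z, K4.z, K4.o) := Orb.stepB _ orb_19
theorem orb_28 : Orb (K4.t, K4.w, K4.o, K4.t) := Orb.stepB _ orb_20
theorem orb_29 : Orb (K4.t, K4.t, K4.w, K4.o) := Orb.stepA _ orb_21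
theorem orb_30 : Orb (K4.w, K4.w, K4.o, K4.w) := Orb.stepB _ orb_21
theorem orb_31 : Orb (K4.t, K4.w, K4.w, K4.o) := Orb.stepA _ orb_22
theorem orb_32 : Orb (K4.w, K4.t, K4.t, K4.t) := Orb.stepB _ orb_22
theorem orb_33 : Orb (K4.z, K4.t, K4.o, K4.z) := Orb.stepA _ orb_23
theorem orb_34 : Orb (K4.o, K4.w, K4.o, K4.w) := Orb.stepB _ orb_23
theorem orb_35 : Orb (K4.z, K4.z, K4.w, K4.o) := Orb.stepB _ orb_24
theorem orb_36 : Orb (K4.z, K4.o, K4.t, K4.z) := Orb.stepA _ orb_25
theorem orb_37 : Orb (K4.t, K4.w, K4.w, K4.w) := Orb.stepB _ orb_25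
theorem orb_38 : Orb (K4.z, K4.z, K4.w, K4.t) := Orb.stepB _ orb_26
theorem orb_39 : Orb (K4.w, K4.z, K4.t, K4.z) := Orb.stepA _ orb_27
theorem orb_40 : Orb (K4.o, K4.o, K4.t, K4.t) := Orb.stepB _ orb_27
theorem orb_41 : Orb (K4.z, K4.t, K4.z, K4.o) := Orb.stepB _ orb_28
theorem orb_42 : Orb (K4.w, K4.t, K4.t, K4.w) := Orb.stepB _ orb_29
theorem orb_43 : Orb (K4.w, K4.w, K4.o, K4.t) := Orb.stepB _ orb_31
theorem orb_44 : Orb (K4.w, K4.t, K4.w, K4.o) := Orb.stepA _ orb_32
theorem orb_45 : Orb (K4.t, K4.t, K4.t, K4.w) := Orb.stepB _ orb_32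
theorem orb_46 : Orb (K4.o, K4.t, K4.t, K4.w) := Orb.stepB _ orb_33
theorem orb_47 : Orb (K4.o, K4.w, K4.t, K4.w) := Orb.stepB _ orb_34
theorem orb_48 : Orb (K4.z, K4.z, K4.t, K4.t) := Orb.stepA _ orb_35
theorem orb_49 : Orb (K4.o, K4.t, K4.t, K4.o) := Orb.stepB _ orb_35
theorem orb_50 : Orb (K4.t, K4.o, K4.t, K4.w) := Orb.stepB _ orb_36
theorem orb_51 : Orb (K4.z, K4.z, K4.o, K4.o) := Orb.stepB _ orb_37
theorem orb_52 : Orb (K4.z, K4.w, K4.t, K4.z) := Orb.stepB _ orb_38
theorem orb_53 : Orb (K4.o, K4.w, K4.w, K4.t) := Orb.stepB _ orb_39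
theorem orb_54 : Orb (K4.o, K4.o, K4.w, K4.o) := Orb.stepA _ orb_40
theorem orb_55 : Orb (K4.z, K4.w, K4.o, K4.z) := Orb.stepB _ orb_40
theorem orb_56 : Orb (K4.z, K4.t, K4.t, K4.z) := Orb.stepA _ orb_41
theorem orb_57 : Orb (K4.t, K4.z, K4.o, K4.z) := Orb.stepB _ orb_41
theorem orb_58 : Orb (K4.w, K4.t, K4.o, K4.o) := Orb.stepA _ orb_42
theorem orb_59 : Orb (K4.z, K4.z, K4.t, K4.o) := Orb.stepB _ orb_42
theorem orb_60 : Orb (K4.w, K4.w, K4.w, K4.w) := Orb.stepA _ orb_43
theorem orb_61 : Orb (K4.t, K4.w, K4.o, K4.w) := Orb.stepB _ orb_44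
theorem orb_62 : Orb (K4.t, K4.t, K4.o, K4.o) := Orb.stepA _ orb_45
theorem orb_63 : Orb (K4.o, K4.t, K4.o, K4.o) := Orb.stepA _ orb_46
theorem orb_64 : Orb (K4.o, K4.w, K4.o, K4.o) := Orb.stepA _ orb_47
theorem orb_65 : Orb (K4.t, K4.w, K4.z, K4.z) := Orb.stepB _ orb_47
theorem orb_66 : Orb (K4.o, K4.o, K4.w, K4.t) := Orb.stepB _ orb_49
theorem orb_67 : Orb (K4.t, K4.o, K4.o, K4.o) := Orb.stepA _ orb_50
theorem orb_68 : Orb (K4.o, K4.t, K4.w, K4.t) := Orb.stepB _ orb_50
theorem orb_69 : Orb (K4.z, K4.z, K4.t, K4.w) := Orb.stepA _ orb_51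
theorem orb_70 : Orb (K4.z, K4.w, K4.z, K4.o) := Orb.stepA _ orb_52
theorem orb_71 : Orb (K4.o, K4.o, K4.w, K4.w) := Orb.stepB _ orb_53
theorem orb_72 : Orb (K4.z, K4.w, K4.z, K4.w) := Orb.stepA _ orb_55
theorem orb_73 : Orb (K4.t, K4.t, K4.z, K4.z) := Orb.stepB _ orb_56
theorem orb_74 : Orb (K4.t, K4.z, K4.z, K4.w) := Orb.stepA _ orb_57
theorem orb_75 : Orb (K4.w, K4.t, K4.t, K4.o) := Orb.stepB _ orb_57
theorem orb_76 : Orb (K4.o, K4.o, K4.t, K4.o) := Orb.stepB _ orb_60
theorem orb_77 : Orb (K4.o, K4.t, K4.w, K4.o) := Orb.stepB _ orb_62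
theorem orb_78 : Orb (K4.t, K4.z, K4.t, K4.z) := Orb.stepB _ orb_64
theorem orb_79 : Orb (K4.o, K4.w, K4.t, K4.o) := Orb.stepB _ orb_66
theorem orb_80 : Orb (K4.o, K4.o, K4.o, K4.t) := Orb.stepB _ orb_67
theorem orb_81 : Orb (K4.o, K4.z, K4.z, K4.t) := Orb.stepB _ orb_68
theorem orb_82 : Orb (K4.w, K4.o, K4.o, K4.w) := Orb.stepB _ orb_69
theorem orb_83 : Orb (K4.t, K4.o, K4.t, K4.o) := Orb.stepB _ orb_70
theorem orb_84 : Orb (K4.w, K4.o, K4.t, K4.w) := Orb.stepB _ orb_71
theorem orb_85 : Orb (K4.o, K4.t, K4.t, K4.t) := Orb.stepB _ orb_72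
theorem orb_86 : Orb (K4.t, K4.z, K4.z, K4.t) := Orb.stepB _ orb_73
theorem orb_87 : Orb (K4.w, K4.w, K4.o, K4.o) := Orb.stepB _ orb_74
theorem orb_88 : Orb (K4.z, K4.o, K4.z, K4.w) := Orb.stepB _ orb_77
theorem orb_89 : Orb (K4.t, K4.z, K4.z, K4.o) := Orb.stepA _ orb_78
theorem orb_90 : Orb (K4.z, K4.t, K4.z, K4.t) := Orb.stepB _ orb_78
theorem orb_91 : Orb (K4.o, K4.z, K4.w, K4.z) := Orb.stepA _ orb_81
theorem orb_92 : Orb (K4.t, K4.t, K4.w, K4.w) := Orb.stepB _ orb_81
theorem orb_93 : Orb (K4.w, K4.w, K4.t, K4.o) := Orb.stepB _ orb_82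
theorem orb_94 : Orb (K4.t, K4.o, K4.w, K4.o) := Orb.stepB _ orb_83
theorem orb_95 : Orb (K4.w, K4.o, K4.o, K4.o) := Orb.stepA _ orb_84
theorem orb_96 : Orb (K4.z, K4.w, K4.z, K4.t) := Orb.stepB _ orb_84
theorem orb_97 : Orb (K4.z, K4.z, K4.w, K4.w) := Orb.stepB _ orb_85
theorem orb_98 : Orb (K4.t, K4.z, K4.w, K4.z) := Orb.stepA _ orb_86
theorem orb_99 : Orb (K4.o, K4.o, K4.o, K4.w) := Orb.stepB _ orb_86
theorem orb_100 : Orb (K4.w, K4.w, K4.t, K4.w) := Orb.stepA _ orb_87
theorem orb_101 : Orb (K4.z, K4.t, K4.w, K4.z) := Orb.stepB _ orb_87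
theorem orb_102 : Orb (K4.z, K4.o, K4.o, K4.z) := Orb.stepA _ orb_88
theorem orb_103 : Orb (K4.z, K4.z, K4.o, K4.t) := Orb.stepB _ orb_89
theorem orb_104 : Orb (K4.t, K4.o, K4.o, K4.w) := Orb.stepB _ orb_91
theorem orb_105 : Orb (K4.t, K4.t, K4.o, K4.t) := Orb.stepA _ orb_92
theorem orb_106 : Orb (K4.w, K4.t, K4.o, K4.w) := Orb.stepB _ orb_93
theorem orb_107 : Orb (K4.t, K4.o, K4.t, K4.t) := Orb.stepA _ orb_94
theorem orb_108 : Orb (K4.w, K4.o, K4.z, K4.z) := Orb.stepB _ orb_94
theorem orb_109 : Orb (K4.z, K4.w, K4.w, K4.z) := Orb.stepA _ orb_96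
theorem orb_110 : Orb (K4.o, K4.t, K4.w, K4.w) := Orb.stepB _ orb_98
theorem orb_111 : Orb (K4.o, K4.o, K4.z, K4.z) := Orb.stepB _ orb_102
theorem orb_112 : Orb (K4.t, K4.w, K4.w, K4.t) := Orb.stepB _ orb_103
theorem orb_113 : Orb (K4.w, K4.z, K4.z, K4.t) := Orb.stepB _ orb_106
theorem orb_114 : Orb (K4.w, K4.z, K4.w, K4.z) := Orb.stepB _ orb_107
theorem orb_115 : Orb (K4.w, K4.w, K4.z, K4.z) := Orb.stepB _ orb_109
theorem orb_116 : Orb (K4.o, K4.t, K4.o, K4.t) := Orb.stepA _ orb_110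
theorem orb_117 : Orb (K4.w, K4.t, K4.z, K4.z) := Orb.stepB _ orb_110
theorem orb_118 : Orb (K4.o, K4.z, K4.z, K4.o) := Orb.stepB _ orb_111
theorem orb_119 : Orb (K4.t, K4.t, K4.o, K4.w) := Orb.stepB _ orb_112
theorem orb_120 : Orb (K4.w, K4.z, K4.z, K4.w) := Orb.stepB _ orb_115
theorem orb_121 : Orb (K4.w, K4.z, K4.o, K4.z) := Orb.stepB _ orb_116
theorem orb_122 : Orb (K4.w, K4.o, K4.w, K4.t) := Orb.stepB _ orb_117
theorem orb_123 : Orb (K4.o, K4.z, K4.t, K4.z) := Orb.stepA _ orb_118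
theorem orb_124 : Orb (K4.w, K4.w, K4.w, K4.t) := Orb.stepB _ orb_118
theorem orb_125 : Orb (K4.t, K4.o, K4.w, K4.t) := Orb.stepB _ orb_119
theorem orb_126 : Orb (K4.t, K4.t, K4.t, K4.o) := Orb.stepB _ orb_120
theorem orb_127 : Orb (K4.t, K4.w, K4.o, K4.o) := Orb.stepB _ orb_121
theorem orb_128 : Orb (K4.w, K4.o, K4.w, K4.o) := Orb.stepB _ orb_122
theorem orb_129 : Orb (K4.w, K4.o, K4.t, K4.t) := Orb.stepB _ orb_123
theorem orb_130 : Orb (K4.t, K4.w, K4.t, K4.w) := Orb.stepA _ orb_127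
theorem orb_131 : Orb (K4.o, K4.w, K4.z, K4.z) := Orb.stepB _ orb_127
theorem orb_132 : Orb (K4.t, K4.o, K4.z, K4.z) := Orb.stepB _ orb_129
theorem orb_133 : Orb (K4.o, K4.t, K4.o, K4.w) := Orb.stepB _ orb_131
theorem orb_134 : Orb (K4.t, K4.w, K4.t, K4.o) := Orb.stepB _ orb_132

theorem all_iso : ∀ v : V4, hK v v = K4.z → v ≠ (K4.z, K4.z, K4.z, K4.z) → Orb v := by
  rintro ⟨a, b, c, d⟩
  cases a <;> cases b <;> cases c <;> cases d <;> intro h1 h2
  · exact absurd rfl h2
  · exact absurd h1 (by decide)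
  · exact absurd h1 (by decide)
  · exact absurd h1 (by decide)
  · exact absurd h1 (by decide)
  · exact orb_51
  · exact orb_0
  · exact orb_103
  · exact absurd h1 (by decide)
  · exact orb_35
  · exact orb_97
  · exact orb_38
  · exact absurd h1 (by decide)
  · exact orb_59
  · exact orb_69
  · exact orb_48
  · exact absurd h1 (by decide)
  · exact orb_25
  · exact orb_88
  · exact orb_2
  · exact orb_102
  · exact absurd h1 (by decide)
  · exact absurd h1 (by decide)
  · exact absurd h1 (by decide)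
  · exact orb_1
  · exact absurd h1 (by decide)
  · exact absurd h1 (by decide)
  · exact absurd h1 (by decide)
  · exact orb_36
  · exact absurd h1 (by decide)
  · exact absurd h1 (by decide)
  · exact absurd h1 (by decide)
  · exact absurd h1 (by decide)
  · exact orb_70
  · exact orb_72
  · exact orb_96
  · exact orb_55
  · exact absurd h1 (by decide)
  · exact absurd h1 (by decide)
  · exact absurd h1 (by decide)
  · exact orb_109
  · exact absurd h1 (by decide)
  · exact absurd h1 (by decide)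
  · exact absurd h1 (by decide)
  · exact orb_52
  · exact absurd h1 (by decide)
  · exact absurd h1 (by decide)
  · exact absurd h1 (by decide)
  · exact absurd h1 (by decide)
  · exact orb_41
  · exact orb_23
  · exact orb_90
  · exact orb_33
  · exact absurd h1 (by decide)
  · exact absurd h1 (by decide)
  · exact absurd h1 (by decide)
  · exact orb_101
  · exact absurd h1 (by decide)
  · exact absurd h1 (by decide)
  · exact absurd h1 (by decide)
  · exact orb_56
  · exact absurd h1 (by decide)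
  · exact absurd h1 (by decide)
  · exact absurd h1 (by decide)
  · exact absurd h1 (by decide)
  · exact orb_118
  · exact orb_24
  · exact orb_81
  · exact orb_17
  · exact absurd h1 (by decide)
  · exact absurd h1 (by decide)
  · exact absurd h1 (by decide)
  · exact orb_91
  · exact absurd h1 (by decide)
  · exact absurd h1 (by decide)
  · exact absurd h1 (by decide)
  · exact orb_123
  · exact absurd h1 (by decide)
  · exact absurd h1 (by decide)
  · exact absurd h1 (by decide)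
  · exact orb_111
  · exact absurd h1 (by decide)
  · exact absurd h1 (by decide)
  · exact absurd h1 (by decide)
  · exact absurd h1 (by decide)
  · exact orb_9
  · exact orb_99
  · exact orb_80
  · exact absurd h1 (by decide)
  · exact orb_54
  · exact orb_71
  · exact orb_66
  · exact absurd h1 (by decide)
  · exact orb_76
  · exact orb_6
  · exact orb_40
  · exact orb_131
  · exact absurd h1 (by decide)
  · exact absurd h1 (by decide)
  · exact absurd h1 (by decide)
  · exact absurd h1 (by decide)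
  · exact orb_64
  · exact orb_34
  · exact orb_13
  · exact absurd h1 (by decide)
  · exact orb_26
  · exact orb_8
  · exact orb_53
  · exact absurd h1 (by decide)
  · exact orb_79
  · exact orb_47
  · exact orb_18
  · exact orb_12
  · exact absurd h1 (by decide)
  · exact absurd h1 (by decide)
  · exact absurd h1 (by decide)
  · exact absurd h1 (by decide)
  · exact orb_63
  · exact orb_133
  · exact orb_116
  · exact absurd h1 (by decide)
  · exact orb_77
  · exact orb_110
  · exact orb_68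
  · exact absurd h1 (by decide)
  · exact orb_49
  · exact orb_46
  · exact orb_85
  · exact absurd h1 (by decide)
  · exact orb_27
  · exact orb_120
  · exact orb_113
  · exact orb_121
  · exact absurd h1 (by decide)
  · exact absurd h1 (by decide)
  · exact absurd h1 (by decide)
  · exact orb_114
  · exact absurd h1 (by decide)
  · exact absurd h1 (by decide)
  · exact absurd h1 (by decide)
  · exact orb_39
  · exact absurd h1 (by decide)
  · exact absurd h1 (by decide)
  · exact absurd h1 (by decide)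
  · exact orb_108
  · exact absurd h1 (by decide)
  · exact absurd h1 (by decide)
  · exact absurd h1 (by decide)
  · exact absurd h1 (by decide)
  · exact orb_95
  · exact orb_82
  · exact orb_3
  · exact absurd h1 (by decide)
  · exact orb_128
  · exact orb_5
  · exact orb_122
  · exact absurd h1 (by decide)
  · exact orb_19
  · exact orb_84
  · exact orb_129
  · exact orb_115
  · exact absurd h1 (by decide)
  · exact absurd h1 (by decide)
  · exact absurd h1 (by decide)
  · exact absurd h1 (by decide)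
  · exact orb_87
  · exact orb_30
  · exact orb_43
  · exact absurd h1 (by decide)
  · exact orb_14
  · exact orb_60
  · exact orb_124
  · exact absurd h1 (by decide)
  · exact orb_93
  · exact orb_100
  · exact orb_20
  · exact orb_117
  · exact absurd h1 (by decide)
  · exact absurd h1 (by decide)
  · exact absurd h1 (by decide)
  · exact absurd h1 (by decide)
  · exact orb_58
  · exact orb_106
  · exact orb_7
  · exact absurd h1 (by decide)
  · exact orb_44
  · exact orb_11
  · exact orb_4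
  · exact absurd h1 (by decide)
  · exact orb_75
  · exact orb_42
  · exact orb_32
  · exact absurd h1 (by decide)
  · exact orb_89
  · exact orb_74
  · exact orb_86
  · exact orb_57
  · exact absurd h1 (by decide)
  · exact absurd h1 (by decide)
  · exact absurd h1 (by decide)
  · exact orb_98
  · exact absurd h1 (by decide)
  · exact absurd h1 (by decide)
  · exact absurd h1 (by decide)
  · exact orb_78
  · exact absurd h1 (by decide)
  · exact absurd h1 (by decide)
  · exact absurd h1 (by decide)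
  · exact orb_132
  · exact absurd h1 (by decide)
  · exact absurd h1 (by decide)
  · exact absurd h1 (by decide)
  · exact absurd h1 (by decide)
  · exact orb_67
  · exact orb_104
  · exact orb_10
  · exact absurd h1 (by decide)
  · exact orb_94
  · exact orb_16
  · exact orb_125
  · exact absurd h1 (by decide)
  · exact orb_83
  · exact orb_50
  · exact orb_107
  · exact orb_65
  · exact absurd h1 (by decide)
  · exact absurd h1 (by decide)
  · exact absurd h1 (by decide)
  · exact absurd h1 (by decide)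
  · exact orb_127
  · exact orb_61
  · exact orb_28
  · exact absurd h1 (by decide)
  · exact orb_31
  · exact orb_37
  · exact orb_112
  · exact absurd h1 (by decide)
  · exact orb_134
  · exact orb_130
  · exact orb_22
  · exact orb_73
  · exact absurd h1 (by decide)
  · exact absurd h1 (by decide)
  · exact absurd h1 (by decide)
  · exact absurd h1 (by decide)
  · exact orb_62
  · exact orb_119
  · exact orb_105
  · exact absurd h1 (by decide)
  · exact orb_29
  · exact orb_92
  · exact orb_15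
  · exact absurd h1 (by decide)
  · exact orb_126
  · exact orb_45
  · exact orb_21

section Field4

set_option linter.unusedSectionVars false

universe u

variable {F : Type u} [Field F]

/-- the model inside a field with an element `ω`. -/
def φ (ω : F) : K4 → F
  | K4.z => 0 | K4.o => 1 | K4.w => ω | K4.t => ω + 1

/-- vectors of the model inside `F^4`. -/
def ψ (ω : F) : V4 → Fin 4 → F
  | (x0, x1, x2, x3) => ![φ ω x0, φ ω x1, φ ω x2, φ ω x3]

theorem φ_add {ω : F} (h2 : (2 : F) = 0) (a b : K4) :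
    φ ω (K4.add a b) = φ ω a + φ ω b := by
  cases a <;> cases b <;> simp only [φ, K4.add] <;>
    first
      | rfl
      | ring1
      | linear_combination -h2
      | linear_combination (-ω) * h2
      | linear_combination (-(ω + 1)) * h2

theorem φ_mul {ω : F} (hω : ω * ω = ω + 1) (h2 : (2 : F) = 0) (a b : K4) :
    φ ω (K4.mul a b) = φ ω a * φ ω b := by
  cases a <;> cases b <;> simp only [φ, K4.mul] <;>
    first
      | rfl
      | ring1
      | linear_combination -hω
      | linear_combination -hω - ω * h2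
      | linear_combination -hω - (ω + 1) * h2

theorem φ_sq {ω : F} (hω : ω * ω = ω + 1) (h2 : (2 : F) = 0) (a : K4) :
    φ ω (K4.sq a) = φ ω a ^ 2 := by
  cases a <;> simp only [φ, K4.sq] <;>
    first
      | rfl
      | ring1
      | linear_combination -hω
      | linear_combination -hω - (ω + 1) * h2

theorem herm_ψ {ω : F} (hω : ω * ω = ω + 1) (h2 : (2 : F) = 0) (x y : V4) :
    Cfsg.hermForm 4 F 2 (ψ ω x) (ψ ω y) = φ ω (hK x y) := by
  obtain ⟨x0, x1, x2, x3⟩ := x
  obtain ⟨y0, y1, y2, y3⟩ := y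
  simp only [Cfsg.hermForm, Fin.sum_univ_four, hK, φ_add h2, φ_mul hω h2, φ_sq hω h2]
  rfl

variable [Fintype F]

theorem ψ_tK {ω : F} (hω : ω * ω = ω + 1) (h2 : (2 : F) = 0) (u x : V4) :
    Cfsg.unitaryTransvection 4 2 (ψ ω u) 1 *ᵥ ψ ω x = ψ ω (tK u x) := by
  rw [utransv_mulVec, herm_ψ hω h2, one_mul]
  obtain ⟨x0, x1, x2, x3⟩ := x
  obtain ⟨u0, u1, u2, u3⟩ := u
  funext i
  fin_cases i <;> simp [ψ, tK, φ_add h2, φ_mul hω h2]

/-- the rotation of the four coordinates. -/
def rot : Equiv.Perm (Fin 4) where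
  toFun := ![1, 2, 3, 0]
  invFun := ![3, 0, 1, 2]
  left_inv := by decide
  right_inv := by decide

theorem ψ_perm (ω : F) (x : V4) :
    (rot.permMatrix F) *ᵥ ψ ω x = ψ ω (permK x) := by
  rw [Matrix.permMatrix_mulVec]
  obtain ⟨x0, x1, x2, x3⟩ := x
  funext i
  fin_cases i <;> rfl

theorem det_rot (h2 : (2 : F) = 0) : (rot.permMatrix F).det = 1 := by
  rw [Matrix.det_permutation]
  rcases Int.units_eq_one_or (Equiv.Perm.sign rot) with h | h
  · rw [h]; simp
  · rw [h]; simp only [Units.val_neg, Units.val_one, Int.cast_neg, Int.cast_one]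
    linear_combination -h2

theorem exists_omega (hF : Fintype.card F = 2 ^ 2) :
    ∃ ω : F, ω * ω = ω + 1 ∧ (2 : F) = 0 ∧ Function.Injective (φ ω) ∧
      Function.Surjective (φ ω) := by
  classical
  obtain ⟨p, k, hp, hchar, hq⟩ := q_prime_pow hF
  have hp2 : p = 2 := by
    have hd : p ∣ 2 := by
      rcases k with _ | k
      · simp at hq
      · rw [hq]; exact dvd_pow_self p (Nat.succ_ne_zero k)
    exact (Nat.prime_dvd_prime_iff_eq hp Nat.prime_two).1 hd
  subst hp2
  have := hchar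
  have h2 : (2 : F) = 0 := by exact_mod_cast CharP.cast_eq_zero F 2
  obtain ⟨ω, hω0, hω1⟩ : ∃ ω : F, ω ≠ 0 ∧ ω ≠ 1 := by
    by_contra hcon
    push Not at hcon
    have hsub : (Finset.univ : Finset F) ⊆ {0, 1} := by
      intro x _
      by_cases hx : x = 0
      · simp [hx]
      · simp [hcon x hx]
    have hle : Fintype.card F ≤ 2 :=
      (Finset.card_le_card hsub).trans Finset.card_le_two
    rw [hF] at hle
    norm_num at hle
  have h3 : ω ^ 3 = 1 := by
    have h := FiniteField.pow_card_sub_one_eq_one ω hω0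
    rw [hF] at h
    exact h
  have hω : ω * ω = ω + 1 := by
    have h4 : (ω - 1) * (ω * ω + ω + 1) = 0 := by linear_combination h3
    rcases mul_eq_zero.mp h4 with h | h
    · exact absurd (sub_eq_zero.mp h) hω1
    · linear_combination h - (ω + 1) * h2
  have e1 : ω + 1 ≠ 0 := fun h => hω1 (by linear_combination h - h2)
  have e2 : ω + 1 ≠ 1 := fun h => hω0 (by linear_combination h)
  have e3 : ω + 1 ≠ ω := fun h => one_ne_zero (α := F) (by linear_combination h)
  have key : ∀ a b : K4, a ≠ b → φ ω a ≠ φ ω b := by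
    intro a b hab
    cases a <;> cases b <;> first
      | exact absurd rfl hab
      | exact zero_ne_one
      | exact one_ne_zero
      | exact hω0
      | exact hω0.symm
      | exact hω1
      | exact hω1.symm
      | exact e1
      | exact e1.symm
      | exact e2
      | exact e2.symm
      | exact e3
      | exact e3.symm
  have hinj : Function.Injective (φ ω) := by
    intro a b hab
    by_contra hne
    exact key a b hne hab
  refine ⟨ω, hω, h2, hinj, ?_⟩
  have hcard : Fintype.card K4 = Fintype.card F := by rw [hF]; rfl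
  exact ((Fintype.bijective_iff_injective_and_card (φ ω)).2 ⟨hinj, hcard⟩).2

theorem ψ_surj {ω : F} (hsurj : Function.Surjective (φ ω)) (x : Fin 4 → F) :
    ∃ v : V4, ψ ω v = x := by
  obtain ⟨a0, h0⟩ := hsurj (x 0)
  obtain ⟨a1, h1⟩ := hsurj (x 1)
  obtain ⟨a2, h2⟩ := hsurj (x 2)
  obtain ⟨a3, h3⟩ := hsurj (x 3)
  refine ⟨(a0, a1, a2, a3), ?_⟩
  funext i
  fin_cases i
  exacts [h0, h1, h2, h3]

/-- conjugating a transvection of a subgroup by an element of the subgroup. -/
theorem conj_mem {n q : ℕ} (K : Subgroup ↥(Cfsg.SU n F q)) (g : ↥(Cfsg.SU n F q))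
    (hg : g ∈ K) (v : Fin n → F) (c : F)
    (h : ∃ A ∈ K, ((A : Matrix.SpecialLinearGroup (Fin n) F) : Matrix (Fin n) (Fin n) F) =
      Cfsg.unitaryTransvection n q v c) :
    ∃ A ∈ K, ((A : Matrix.SpecialLinearGroup (Fin n) F) : Matrix (Fin n) (Fin n) F) =
      Cfsg.unitaryTransvection n q
        (((g : Matrix.SpecialLinearGroup (Fin n) F) : Matrix (Fin n) (Fin n) F) *ᵥ v) c := by
  obtain ⟨A, hA, hAm⟩ := h
  refine ⟨g * A * g⁻¹, K.mul_mem (K.mul_mem hg hA) (K.inv_mem hg), ?_⟩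
  have h1 := utransv_conj
    (G := ((g : Matrix.SpecialLinearGroup (Fin n) F) : Matrix (Fin n) (Fin n) F)) g.2 v c
  have h2 : (((g * A * g⁻¹ : ↥(Cfsg.SU n F q)) : Matrix.SpecialLinearGroup (Fin n) F) :
        Matrix (Fin n) (Fin n) F) *
      ((g : Matrix.SpecialLinearGroup (Fin n) F) : Matrix (Fin n) (Fin n) F) =
      ((g : Matrix.SpecialLinearGroup (Fin n) F) : Matrix (Fin n) (Fin n) F) *
      ((A : Matrix.SpecialLinearGroup (Fin n) F) : Matrix (Fin n) (Fin n) F) := by
    rw [← Matrix.SpecialLinearGroup.coe_mul, ← Subgroup.coe_mul,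
      ← Matrix.SpecialLinearGroup.coe_mul, ← Subgroup.coe_mul, inv_mul_cancel_right]
  have h3 : ((g : Matrix.SpecialLinearGroup (Fin n) F) : Matrix (Fin n) (Fin n) F) *
      (((g⁻¹ : ↥(Cfsg.SU n F q)) : Matrix.SpecialLinearGroup (Fin n) F) :
        Matrix (Fin n) (Fin n) F) = 1 := by
    rw [← Matrix.SpecialLinearGroup.coe_mul, ← Subgroup.coe_mul, mul_inv_cancel]
    rfl
  calc (((g * A * g⁻¹ : ↥(Cfsg.SU n F q)) : Matrix.SpecialLinearGroup (Fin n) F) :
        Matrix (Fin n) (Fin n) F)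
      = (((g * A * g⁻¹ : ↥(Cfsg.SU n F q)) : Matrix.SpecialLinearGroup (Fin n) F) :
        Matrix (Fin n) (Fin n) F) *
        (((g : Matrix.SpecialLinearGroup (Fin n) F) : Matrix (Fin n) (Fin n) F) *
        (((g⁻¹ : ↥(Cfsg.SU n F q)) : Matrix.SpecialLinearGroup (Fin n) F) :
          Matrix (Fin n) (Fin n) F)) := by rw [h3, Matrix.mul_one]
    _ = Cfsg.unitaryTransvection n q
        (((g : Matrix.SpecialLinearGroup (Fin n) F) : Matrix (Fin n) (Fin n) F) *ᵥ v) c := by
      rw [← Matrix.mul_assoc, h2, hAm, h1, Matrix.mul_assoc, h3, Matrix.mul_one]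

/-- `SU_4(2)`, over any field with four elements, is generated by two elements. -/
theorem su42_two_gen (hF : Fintype.card F = 2 ^ 2) :
    ∃ a b : ↥(Cfsg.SU 4 F 2), Subgroup.closure ({a, b} : Set ↥(Cfsg.SU 4 F 2)) = ⊤ := by
  classical
  obtain ⟨ω, hω, h2, hinj, hsurj⟩ := exists_omega hF
  have hc : (1 : F) ^ 2 = -1 := by rw [one_pow]; linear_combination h2
  have hv0 : Cfsg.hermForm 4 F 2 (ψ ω v0K) (ψ ω v0K) = 0 := by rw [herm_ψ hω h2]; rfl
  have hu : Cfsg.hermForm 4 F 2 (ψ ω uK) (ψ ω uK) = 0 := by rw [herm_ψ hω h2]; rfl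
  let a : ↥(Cfsg.SU 4 F 2) := suMk (Cfsg.unitaryTransvection 4 2 (ψ ω v0K) 1)
    (det_utransv _ 1 hv0) (isHermIso_utransv hF _ 1 hv0 hc)
  let b : ↥(Cfsg.SU 4 F 2) :=
    suMk (rot.permMatrix F * Cfsg.unitaryTransvection 4 2 (ψ ω uK) 1)
      (by rw [Matrix.det_mul, det_rot h2, det_utransv _ 1 hu, mul_one])
      (isHermIso_mul (isHermIso_perm rot) (isHermIso_utransv hF _ 1 hu hc))
  refine ⟨a, b, ?_⟩
  have haK : a ∈ Subgroup.closure ({a, b} : Set ↥(Cfsg.SU 4 F 2)) :=
    Subgroup.subset_closure (by simp)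
  have hbK : b ∈ Subgroup.closure ({a, b} : Set ↥(Cfsg.SU 4 F 2)) :=
    Subgroup.subset_closure (by simp)
  have hOrb : ∀ v : V4, Orb v →
      ∃ A ∈ Subgroup.closure ({a, b} : Set ↥(Cfsg.SU 4 F 2)),
        ((A : Matrix.SpecialLinearGroup (Fin 4) F) : Matrix (Fin 4) (Fin 4) F) =
          Cfsg.unitaryTransvection 4 2 (ψ ω v) 1 := by
    intro v hv
    induction hv with
    | base => exact ⟨a, haK, rfl⟩
    | stepA x _ ih =>
      have h := conj_mem _ a haK _ 1 ih
      have e : ((a : Matrix.SpecialLinearGroup (Fin 4) F) : Matrix (Fin 4) (Fin 4) F) *ᵥ ψ ω x =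
          ψ ω (actA x) := ψ_tK hω h2 v0K x
      rwa [e] at h
    | stepB x _ ih =>
      have h := conj_mem _ b hbK _ 1 ih
      have e : ((b : Matrix.SpecialLinearGroup (Fin 4) F) : Matrix (Fin 4) (Fin 4) F) *ᵥ ψ ω x =
          ψ ω (actB x) := by
        show (rot.permMatrix F * Cfsg.unitaryTransvection 4 2 (ψ ω uK) 1) *ᵥ ψ ω x = _
        rw [← Matrix.mulVec_mulVec, ψ_tK hω h2, ψ_perm]
        rfl
      rwa [e] at h
  rw [eq_top_iff, ← Cfsg.Agent.S0780.result hF 4 (by norm_num) (by norm_num),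
    Subgroup.closure_le]
  rintro A ⟨x, c, hx, hA⟩
  show A ∈ Subgroup.closure ({a, b} : Set ↥(Cfsg.SU 4 F 2))
  by_cases hx0 : x = 0
  · have h1 : A = 1 := by
      apply su_ext
      rw [hA, hx0, utransv_eq]
      simp [hermRank1]
    rw [h1]; exact Subgroup.one_mem _
  have hskew : c ^ 2 = -c := utransv_skew hF x c hx0 hx (by rw [← hA]; exact A.2)
  have hc01 : c = 0 ∨ c = 1 := by
    have h5 : c * (c + 1) = 0 := by linear_combination hskew
    rcases mul_eq_zero.mp h5 with h | h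
    · exact Or.inl h
    · right; linear_combination h - h2
  rcases hc01 with rfl | rfl
  · have h1 : A = 1 := by
      apply su_ext
      rw [hA, utransv_zero]
      rfl
    rw [h1]; exact Subgroup.one_mem _
  obtain ⟨v, rfl⟩ := ψ_surj hsurj x
  have hiso : hK v v = K4.z := hinj (by rw [← herm_ψ hω h2]; exact hx)
  have hv0' : v ≠ (K4.z, K4.z, K4.z, K4.z) := by
    rintro rfl
    apply hx0
    funext i
    fin_cases i <;> rfl
  obtain ⟨A', hA', hA'm⟩ := hOrb v (all_iso v hiso hv0')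
  have h6 : A = A' := su_ext _ _ (by rw [hA, hA'm])
  rw [h6]; exact hA'

end Field4

end Cfsg.Agent.Lib.Helper5.SUG
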