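-- helper5: [N4Q2] of SUG = S2412 in the exact shape of Helper60.SUG.Defs.
import Mathlib
import Cfsg.Agent.Lib.Helper60.SUG.Defs
import Cfsg.Agent.Lib.Helper5.SUG.SU42

set_option autoImplicit false

namespace Cfsg.Agent.Lib.Helper5.SUG

universe u

/-- [N4Q2] `SU_4(2)` is generated by two elements. -/
theorem pkgN4Q2 : Cfsg.Agent.Lib.Helper60.SUG.PkgN4Q2.{u} :=
  fun hF => su42_two_gen hF

end Cfsg.Agent.Lib.Helper5.SUG
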